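import Cfsg.Prelude.Def_PLocal
import Cfsg.Agent.Solv.Core

/-! Coset facts for the reduction of S2751 to the coset graph. -/

set_option autoImplicit false
set_option linter.unusedSectionVars false

namespace Cfsg.Agent.H70.GeRed

theorem cover3 {α : Type*} (h : Nat.card α = 3) {a b c : α} (hab : a ≠ b) (hac : a ≠ c)
    (hbc : b ≠ c) (x : α) : x = a ∨ x = b ∨ x = c := by
  classical
  have : Finite α := Nat.finite_of_card_ne_zero (by omega)
  have : Fintype α := Fintype.ofFinite α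
  rw [Nat.card_eq_fintype_card] at h
  have h3 : ({a, b, c} : Finset α).card = 3 := by
    rw [Finset.card_insert_of_notMem, Finset.card_insert_of_notMem, Finset.card_singleton]
    · simpa using hbc
    · simp [hab, hac]
  have hu : ({a, b, c} : Finset α) = Finset.univ := by
    rw [← Finset.card_eq_iff_eq_univ, h3, h]
  have hx : x ∈ ({a, b, c} : Finset α) := by rw [hu]; exact Finset.mem_univ x
  simpa using hx

theorem index_pcore {M : Type*} [Group M] [Finite M]
    (hb : Nonempty (M ⧸ Cfsg.pCore 2 M ≃* Equiv.Perm (Fin 3))) : (Cfsg.pCore 2 M).index = 6 := by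
  obtain ⟨e⟩ := hb
  rw [Subgroup.index, Nat.card_congr e.toEquiv, Nat.card_eq_fintype_card, Fintype.card_perm,
    Fintype.card_fin]
  rfl

theorem index_syl {M : Type*} [Group M] [Finite M] (P : Sylow 2 M)
    (hb : Nonempty (M ⧸ Cfsg.pCore 2 M ≃* Equiv.Perm (Fin 3))) : (P : Subgroup M).index = 3 := by
  have : Fact (Nat.Prime 2) := ⟨Nat.prime_two⟩
  have h6 := index_pcore hb
  have hle : Cfsg.pCore 2 M ≤ (P : Subgroup M) := Solv.pCore_le_sylow P
  have hd : (P : Subgroup M).index ∣ 6 := by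
    rw [← h6]; exact Subgroup.index_dvd_of_le hle
  have hn : ¬ 2 ∣ (P : Subgroup M).index := P.not_dvd_index
  have h1 : (P : Subgroup M).index ≠ 1 := by
    intro h1
    rw [Subgroup.index_eq_one] at h1
    have h2 : IsPGroup 2 M := by
      have h3 := P.isPGroup'
      rw [h1] at h3
      intro g
      obtain ⟨k, hk⟩ := h3 ⟨g, Subgroup.mem_top g⟩
      exact ⟨k, congrArg Subtype.val hk⟩
    obtain ⟨k, hk⟩ := (IsPGroup.iff_card.mp h2)
    have h4 : (Cfsg.pCore 2 M).index ∣ Nat.card M := Subgroup.index_dvd_card _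
    rw [h6, hk] at h4
    have h5 : 3 ∣ 2 ^ k := Dvd.dvd.trans (by norm_num) h4
    have h6 := (Nat.Prime.dvd_of_dvd_pow Nat.prime_three h5)
    omega
  have hle6 : (P : Subgroup M).index ≤ 6 := Nat.le_of_dvd (by norm_num) hd
  interval_cases h : (P : Subgroup M).index
  all_goals first | rfl | omega

section
variable {G : Type*} [Group G] (M N : Subgroup G) [Finite M]
  (hS : ∃ P : Sylow 2 M, (P : Subgroup M) = (M ⊓ N).subgroupOf M)
  (hb : Nonempty (M ⧸ Cfsg.pCore 2 M ≃* Equiv.Perm (Fin 3)))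

include hS hb

theorem cover_gen {m m' m'' : G} (h0 : m ∈ M) (h1 : m' ∈ M) (h2 : m'' ∈ M) (h01 : m⁻¹ * m' ∉ N)
    (h02 : m⁻¹ * m'' ∉ N) (h12 : m'⁻¹ * m'' ∉ N) {x : G} (hx : x ∈ M) :
    m⁻¹ * x ∈ N ∨ m'⁻¹ * x ∈ N ∨ m''⁻¹ * x ∈ N := by
  obtain ⟨P, hP⟩ := hS
  have hi := index_syl P hb
  have key : ∀ a b : M, ((a : M ⧸ (P : Subgroup M)) = b) ↔ ((a : G)⁻¹ * b ∈ N) := by
    intro a b
    rw [QuotientGroup.eq, hP, Subgroup.mem_subgroupOf, Subgroup.mem_inf]
    constructor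
    · intro h; exact h.2
    · intro h; exact ⟨(a⁻¹ * b).2, h⟩
  have := cover3 (α := M ⧸ (P : Subgroup M)) hi
    (a := ((⟨m, h0⟩ : M) : M ⧸ (P : Subgroup M))) (b := ((⟨m', h1⟩ : M) : M ⧸ (P : Subgroup M)))
    (c := ((⟨m'', h2⟩ : M) : M ⧸ (P : Subgroup M)))
    (fun e => h01 ((key _ _).mp e)) (fun e => h02 ((key _ _).mp e))
    (fun e => h12 ((key _ _).mp e)) ((⟨x, hx⟩ : M) : M ⧸ (P : Subgroup M))
  rcases this with h | h | h
  · exact Or.inl ((key _ _).mp h.symm)
  · exact Or.inr (Or.inl ((key _ _).mp h.symm))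
  · exact Or.inr (Or.inr ((key _ _).mp h.symm))

theorem nb_gen : ∃ m ∈ M, ∃ m' ∈ M, ∃ m'' ∈ M, m⁻¹ * m' ∉ N ∧ m⁻¹ * m'' ∉ N ∧ m'⁻¹ * m'' ∉ N := by
  obtain ⟨P, hP⟩ := hS
  have hi := index_syl P hb
  have key : ∀ a b : M, ((a : M ⧸ (P : Subgroup M)) = b) ↔ ((a : G)⁻¹ * b ∈ N) := by
    intro a b
    rw [QuotientGroup.eq, hP, Subgroup.mem_subgroupOf, Subgroup.mem_inf]
    constructor
    · intro h; exact h.2
    · intro h; exact ⟨(a⁻¹ * b).2, h⟩
  have hi' : Nat.card (M ⧸ (P : Subgroup M)) = 3 := hi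
  have : Finite (M ⧸ (P : Subgroup M)) := Nat.finite_of_card_ne_zero (by omega)
  let e : (M ⧸ (P : Subgroup M)) ≃ Fin 3 := Finite.equivFinOfCardEq hi'
  obtain ⟨a, ha⟩ := QuotientGroup.mk_surjective (e.symm 0)
  obtain ⟨b, hb⟩ := QuotientGroup.mk_surjective (e.symm 1)
  obtain ⟨c, hc⟩ := QuotientGroup.mk_surjective (e.symm 2)
  refine ⟨a, a.2, b, b.2, c, c.2, fun h => ?_, fun h => ?_, fun h => ?_⟩
  · have := (key a b).mpr h
    rw [ha, hb] at this
    have := e.symm.injective this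
    revert this; decide
  · have := (key a c).mpr h
    rw [ha, hc] at this
    have := e.symm.injective this
    revert this; decide
  · have := (key b c).mpr h
    rw [hb, hc] at this
    have := e.symm.injective this
    revert this; decide

theorem swap_gen {m m' : G} (hm : m ∈ M) (hm' : m' ∈ M) (h0 : m ∉ N) (h1 : m' ∉ N)
    (h01 : m⁻¹ * m' ∉ N) : ∃ t ∈ M ⊓ N, m'⁻¹ * (t * m) ∈ N := by
  by_contra hcon
  push Not at hcon
  have cov : ∀ x ∈ M, x ∈ N ∨ m⁻¹ * x ∈ N ∨ m'⁻¹ * x ∈ N := by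
    intro x hx
    have := cover_gen M N hS hb (m := 1) (m' := m) (m'' := m') M.one_mem hm hm'
      (by simpa using h0) (by simpa using h1) h01 hx
    simpa using this
  have hfm : ∀ t ∈ M ⊓ N, m⁻¹ * (t * m) ∈ N := by
    intro t ht
    rcases cov (t * m) (M.mul_mem ht.1 hm) with h | h | h
    · exact absurd ((Subgroup.mul_mem_cancel_left N ht.2).mp h) h0
    · exact h
    · exact absurd h (hcon t ht)
  have hfm' : ∀ t ∈ M ⊓ N, m'⁻¹ * (t * m') ∈ N := by
    intro t ht
    rcases cov (t * m') (M.mul_mem ht.1 hm') with h | h | h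
    · exact absurd ((Subgroup.mul_mem_cancel_left N ht.2).mp h) h1
    · exfalso
      have h2 := N.inv_mem h
      have h3 := hcon t⁻¹ ((M ⊓ N).inv_mem ht)
      apply h3
      simpa [mul_assoc] using h2
    · exact h
  obtain ⟨P, hP⟩ := hS
  have hi := index_syl P hb
  have h6 := index_pcore hb
  have hnorm : (P : Subgroup M).Normal := by
    refine ⟨fun s hs g => ?_⟩
    rw [hP, Subgroup.mem_subgroupOf] at hs ⊢
    refine ⟨(g * s * g⁻¹).2, ?_⟩
    have hg' : ((g : G)⁻¹) ∈ M := M.inv_mem g.2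
    -- decompose g⁻¹ = y * u
    have base : ∀ y : G, (∀ t ∈ M ⊓ N, y⁻¹ * (t * y) ∈ N) → y⁻¹ * (g : G)⁻¹ ∈ N → y ∈ M →
        ((g * s * g⁻¹ : M) : G) ∈ N := by
      intro y hy hu hyM
      have h1 := hy s hs
      have h2 : ((g * s * g⁻¹ : M) : G) =
          (y⁻¹ * (g : G)⁻¹)⁻¹ * (y⁻¹ * ((s : G) * y)) * (y⁻¹ * (g : G)⁻¹) := by
        push_cast
        group
      rw [h2]
      exact N.mul_mem (N.mul_mem (N.inv_mem hu) h1) hu
    rcases cov _ hg' with h | h | h
    · refine base 1 (fun t ht => by simpa using ht.2) (by simpa using h) M.one_mem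
    · exact base m hfm h hm
    · exact base m' hfm' h hm'
  have hle : (P : Subgroup M) ≤ Cfsg.pCore 2 M := Solv.le_pCore hnorm P.isPGroup'
  have hd : (Cfsg.pCore 2 M).index ∣ (P : Subgroup M).index := Subgroup.index_dvd_of_le hle
  rw [hi, h6] at hd
  exact absurd (Nat.le_of_dvd (by norm_num) hd) (by norm_num)

theorem t_isPGroup {x : G} (hx : x ∈ M ⊓ N) : ∃ k : ℕ, x ^ 2 ^ k = 1 := by
  obtain ⟨P, hP⟩ := hS
  have h1 : (⟨x, hx.1⟩ : M) ∈ (P : Subgroup M) := by
    rw [hP, Subgroup.mem_subgroupOf]; exact hx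
  obtain ⟨k, hk⟩ := P.isPGroup' ⟨_, h1⟩
  refine ⟨k, ?_⟩
  have := congrArg (fun y : (P : Subgroup M) => ((y : M) : G)) hk
  simpa using this

/-- a central involution of `T = M ⊓ N` -/
theorem exists_invol : ∃ x ∈ M ⊓ N, x ≠ 1 ∧ x * x = 1 ∧ ∀ t ∈ M ⊓ N, t * x = x * t := by
  have hf : Fact (Nat.Prime 2) := ⟨Nat.prime_two⟩
  have hS' := hS
  obtain ⟨P, hP⟩ := hS
  have hi := index_syl P hb
  have h6 := index_pcore hb
  have hPne : Nontrivial (P : Subgroup M) := by
    rw [Subgroup.nontrivial_iff_ne_bot]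
    intro h
    have h1 : Cfsg.pCore 2 M = ⊥ := by
      have : Cfsg.pCore 2 M ≤ (P : Subgroup M) := Solv.pCore_le_sylow P
      rw [h] at this
      exact le_bot_iff.mp this
    rw [h1] at h6
    rw [h] at hi
    omega
  have hc : Nontrivial (Subgroup.center (P : Subgroup M)) := P.isPGroup'.center_nontrivial
  have hcp : IsPGroup 2 (Subgroup.center (P : Subgroup M)) :=
    P.isPGroup'.to_subgroup (Subgroup.center (P : Subgroup M))
  have hd : 2 ∣ Nat.card (Subgroup.center (P : Subgroup M)) := by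
    obtain ⟨k, hk⟩ := IsPGroup.iff_card.mp hcp
    rw [hk]
    refine dvd_pow_self 2 ?_
    rintro rfl
    have := Finite.one_lt_card (α := Subgroup.center (P : Subgroup M))
    rw [hk] at this
    simp at this
  obtain ⟨x, hx⟩ := exists_prime_orderOf_dvd_card' 2 hd
  have hx2 : x ^ 2 = 1 := orderOf_dvd_iff_pow_eq_one.mp (by rw [hx])
  have hx1 : x ≠ 1 := by
    rintro rfl
    rw [orderOf_one] at hx
    omega
  have hmem : (((x : (P : Subgroup M)) : M) : G) ∈ M ⊓ N := by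
    have h1 : ∀ y : M, y ∈ (P : Subgroup M) → (y : G) ∈ M ⊓ N := by
      intro y hy
      rw [hP, Subgroup.mem_subgroupOf] at hy
      exact hy
    exact h1 _ (x : (P : Subgroup M)).2
  refine ⟨(((x : (P : Subgroup M)) : M) : G), hmem, ?_, ?_, ?_⟩
  · intro h
    apply hx1
    apply Subtype.ext
    apply Subtype.ext
    exact Subtype.ext h
  · have := congrArg (fun y : Subgroup.center (P : Subgroup M) =>
      (((y : (P : Subgroup M)) : M) : G)) hx2
    simpa [sq] using this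
  · intro t ht
    have h1 : (⟨t, ht.1⟩ : M) ∈ (P : Subgroup M) := by
      rw [hP, Subgroup.mem_subgroupOf]; exact ht
    have h2 := Subgroup.mem_center_iff.mp x.2 ⟨_, h1⟩
    have := congrArg (fun y : (P : Subgroup M) => ((y : M) : G)) h2
    simpa using this

end

end Cfsg.Agent.H70.GeRed
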