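import Cfsg.Agent.H70.GeRedA

/-! The coset graph of `M₁`, `M₂` as a `Geo` (reduction of S2751). -/

set_option autoImplicit false
set_option linter.unusedSectionVars false

open MulAction

namespace Cfsg.Agent.H70.GeRed

variable {G : Type*} [Group G]

/-- elements whose conjugates `g⁻¹ x g` (`g` in the coset `y`) lie in `K` -/
def conjQ (M K : Subgroup G) (y : G ⧸ M) : Subgroup G where
  carrier := {x | ∀ g : G, (g : G ⧸ M) = y → g⁻¹ * x * g ∈ K}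
  one_mem' := fun g _ => by simp
  mul_mem' := by
    intro a b ha hb g hg
    have := K.mul_mem (ha g hg) (hb g hg)
    have e : g⁻¹ * (a * b) * g = (g⁻¹ * a * g) * (g⁻¹ * b * g) := by group
    rw [e]; exact this
  inv_mem' := by
    intro a ha g hg
    have := K.inv_mem (ha g hg)
    have e : g⁻¹ * a⁻¹ * g = (g⁻¹ * a * g)⁻¹ := by group
    rw [e]; exact this

theorem mem_conjQ {M K : Subgroup G} (hK : ∀ m ∈ M, ∀ x ∈ K, m * x * m⁻¹ ∈ K) {g x : G} :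
    x ∈ conjQ M K (g : G ⧸ M) ↔ g⁻¹ * x * g ∈ K := by
  constructor
  · intro h; exact h g rfl
  · intro h g' hg'
    have h1 : g'⁻¹ * g ∈ M := QuotientGroup.eq.mp hg'
    have := hK _ h1 _ h
    have e : g'⁻¹ * x * g' = g'⁻¹ * g * (g⁻¹ * x * g) * (g'⁻¹ * g)⁻¹ := by group
    rw [e]; exact this

/-- `Ω₁(Z(T))`, `T = M ⊓ N` -/
def Z0 (M N : Subgroup G) : Subgroup G where
  carrier := {x | x ∈ M ⊓ N ∧ x * x = 1 ∧ ∀ t ∈ M ⊓ N, t * x = x * t}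
  one_mem' := ⟨Subgroup.one_mem _, by simp, by simp⟩
  mul_mem' := by
    rintro a b ⟨ha, ha2, hac⟩ ⟨hb, hb2, hbc⟩
    refine ⟨Subgroup.mul_mem _ ha hb, ?_, fun t ht => ?_⟩
    · have h1 : b * a = a * b := by rw [hac b hb]
      calc a * b * (a * b) = a * (b * a) * b := by group
        _ = a * (a * b) * b := by rw [h1]
        _ = (a * a) * (b * b) := by group
        _ = 1 := by rw [ha2, hb2, one_mul]
    · calc t * (a * b) = (t * a) * b := by group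
        _ = a * (t * b) := by rw [hac t ht]; group
        _ = a * b * t := by rw [hbc t ht]; group
  inv_mem' := by
    rintro a ⟨ha, ha2, hac⟩
    have h1 : a⁻¹ = a := by
      rw [inv_eq_iff_mul_eq_one]; exact ha2
    show a⁻¹ ∈ M ⊓ N ∧ a⁻¹ * a⁻¹ = 1 ∧ ∀ t ∈ M ⊓ N, t * a⁻¹ = a⁻¹ * t
    rw [h1]
    exact ⟨ha, ha2, hac⟩

theorem mem_Z0 {M N : Subgroup G} {x : G} :
    x ∈ Z0 M N ↔ x ∈ M ⊓ N ∧ x * x = 1 ∧ ∀ t ∈ M ⊓ N, t * x = x * t := Iff.rfl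

/-- normal closure in `M` of `Z0` -/
def Z1 (M N : Subgroup G) : Subgroup G :=
  Subgroup.closure {y | ∃ m ∈ M, ∃ x ∈ Z0 M N, y = m * x * m⁻¹}

theorem Z0_le_Z1 {M N : Subgroup G} : Z0 M N ≤ Z1 M N := by
  intro x hx
  exact Subgroup.subset_closure ⟨1, M.one_mem, x, hx, by group⟩

theorem Z1_le {M N : Subgroup G} : Z1 M N ≤ M := by
  rw [Z1, Subgroup.closure_le]
  rintro y ⟨m, hm, x, hx, rfl⟩
  exact M.mul_mem (M.mul_mem hm hx.1.1) (M.inv_mem hm)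

theorem Z1_conj {M N : Subgroup G} : ∀ m ∈ M, ∀ x ∈ Z1 M N, m * x * m⁻¹ ∈ Z1 M N := by
  intro m hm x hx
  have : Z1 M N ≤ (Z1 M N).comap (MulAut.conj m).toMonoidHom := by
    rw [Z1, Subgroup.closure_le]
    rintro y ⟨m', hm', x', hx', rfl⟩
    refine Subgroup.subset_closure ⟨m * m', M.mul_mem hm hm', x', hx', ?_⟩
    simp [MulAut.conj_apply]
    group
  have := this hx
  simpa [MulAut.conj_apply] using this

section
variable (M₁ M₂ : Subgroup G)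

/-- adjacency of the coset graph -/
def cadj : (G ⧸ M₁) ⊕ (G ⧸ M₂) → (G ⧸ M₁) ⊕ (G ⧸ M₂) → Prop
  | Sum.inl x, Sum.inr y => ∃ g : G, (g : G ⧸ M₁) = x ∧ (g : G ⧸ M₂) = y
  | Sum.inr y, Sum.inl x => ∃ g : G, (g : G ⧸ M₁) = x ∧ (g : G ⧸ M₂) = y
  | _, _ => False

/-- type -/
def cty : (G ⧸ M₁) ⊕ (G ⧸ M₂) → Bool
  | Sum.inl _ => true
  | Sum.inr _ => false

theorem cadj_symm {u v : (G ⧸ M₁) ⊕ (G ⧸ M₂)} (h : cadj M₁ M₂ u v) : cadj M₁ M₂ v u := by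
  rcases u with x | x <;> rcases v with y | y <;> exact h

theorem cadj_ty {u v : (G ⧸ M₁) ⊕ (G ⧸ M₂)} (h : cadj M₁ M₂ u v) :
    cty M₁ M₂ v = !cty M₁ M₂ u := by
  rcases u with x | x <;> rcases v with y | y
  · exact h.elim
  · rfl
  · rfl
  · exact h.elim

theorem smul_mk (M : Subgroup G) (g h : G) : g • (h : G ⧸ M) = ((g * h : G) : G ⧸ M) := rfl

theorem cadj_smul (g : G) {u v : (G ⧸ M₁) ⊕ (G ⧸ M₂)} (h : cadj M₁ M₂ u v) :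
    cadj M₁ M₂ (g • u) (g • v) := by
  rcases u with x | x <;> rcases v with y | y
  · exact h.elim
  · obtain ⟨k, rfl, rfl⟩ := h
    exact ⟨g * k, rfl, rfl⟩
  · obtain ⟨k, rfl, rfl⟩ := h
    exact ⟨g * k, rfl, rfl⟩
  · exact h.elim

theorem cty_smul (g : G) (v : (G ⧸ M₁) ⊕ (G ⧸ M₂)) : cty M₁ M₂ (g • v) = cty M₁ M₂ v := by
  rcases v with y | y <;> rfl

theorem ctrans {u v : (G ⧸ M₁) ⊕ (G ⧸ M₂)} (h : cty M₁ M₂ u = cty M₁ M₂ v) :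
    ∃ g : G, g • u = v := by
  rcases u with x | x <;> rcases v with y | y
  · obtain ⟨a, rfl⟩ := QuotientGroup.mk_surjective x
    obtain ⟨b, rfl⟩ := QuotientGroup.mk_surjective y
    refine ⟨b * a⁻¹, ?_⟩
    rw [Sum.smul_inl, smul_mk]
    simp
  · simp [cty] at h
  · simp [cty] at h
  · obtain ⟨a, rfl⟩ := QuotientGroup.mk_surjective x
    obtain ⟨b, rfl⟩ := QuotientGroup.mk_surjective y
    refine ⟨b * a⁻¹, ?_⟩
    rw [Sum.smul_inr, smul_mk]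
    simp

theorem mk_eq_iff (M : Subgroup G) {a b : G} : (a : G ⧸ M) = b ↔ a⁻¹ * b ∈ M := QuotientGroup.eq

theorem fix_mk (M : Subgroup G) {a g : G} : g • (a : G ⧸ M) = a ↔ a⁻¹ * g * a ∈ M := by
  rw [smul_mk, eq_comm, mk_eq_iff, mul_assoc]


theorem cadj_inl {a : G} {v : (G ⧸ M₁) ⊕ (G ⧸ M₂)} (h : cadj M₁ M₂ (Sum.inl (a : G ⧸ M₁)) v) :
    ∃ m ∈ M₁, v = Sum.inr ((a * m : G) : G ⧸ M₂) := by
  rcases v with y | y
  · exact h.elim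
  · obtain ⟨k, hk, rfl⟩ := h
    refine ⟨a⁻¹ * k, (mk_eq_iff M₁).mp hk.symm, ?_⟩
    rw [mul_inv_cancel_left]

theorem cadj_inr {a : G} {v : (G ⧸ M₁) ⊕ (G ⧸ M₂)} (h : cadj M₁ M₂ (Sum.inr (a : G ⧸ M₂)) v) :
    ∃ m ∈ M₂, v = Sum.inl ((a * m : G) : G ⧸ M₁) := by
  rcases v with y | y
  · obtain ⟨k, rfl, hk⟩ := h
    refine ⟨a⁻¹ * k, (mk_eq_iff M₂).mp hk.symm, ?_⟩
    rw [mul_inv_cancel_left]
  · exact h.elim

theorem cadj_inl_mk {a m : G} (hm : m ∈ M₁) :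
    cadj M₁ M₂ (Sum.inl (a : G ⧸ M₁)) (Sum.inr ((a * m : G) : G ⧸ M₂)) := by
  refine ⟨a * m, ?_, rfl⟩
  rw [eq_comm, mk_eq_iff, inv_mul_cancel_left]
  exact hm

theorem cadj_inr_mk {a m : G} (hm : m ∈ M₂) :
    cadj M₁ M₂ (Sum.inr (a : G ⧸ M₂)) (Sum.inl ((a * m : G) : G ⧸ M₁)) := by
  refine ⟨a * m, rfl, ?_⟩
  rw [eq_comm, mk_eq_iff, inv_mul_cancel_left]
  exact hm

theorem mk_mul_eq_iff (M : Subgroup G) {a b c : G} :
    ((a * b : G) : G ⧸ M) = ((a * c : G) : G ⧸ M) ↔ b⁻¹ * c ∈ M := by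
  rw [mk_eq_iff]
  have : (a * b)⁻¹ * (a * c) = b⁻¹ * c := by group
  rw [this]

theorem inv_mem_swap {M : Subgroup G} {a b : G} : a⁻¹ * b ∈ M ↔ b⁻¹ * a ∈ M := by
  have : b⁻¹ * a = (a⁻¹ * b)⁻¹ := by group
  rw [this, inv_mem_iff]

variable [Finite M₁] [Finite M₂]
  (ha₁ : ∃ P : Sylow 2 M₁, (P : Subgroup M₁) = (M₁ ⊓ M₂).subgroupOf M₁)
  (ha₂ : ∃ P : Sylow 2 M₂, (P : Subgroup M₂) = (M₁ ⊓ M₂).subgroupOf M₂)
  (hb₁ : Nonempty (M₁ ⧸ Cfsg.pCore 2 M₁ ≃* Equiv.Perm (Fin 3)))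
  (hb₂ : Nonempty (M₂ ⧸ Cfsg.pCore 2 M₂ ≃* Equiv.Perm (Fin 3)))

include ha₁ ha₂ hb₁ hb₂

theorem cnb (v : (G ⧸ M₁) ⊕ (G ⧸ M₂)) : ∃ a b c : (G ⧸ M₁) ⊕ (G ⧸ M₂), a ≠ b ∧ a ≠ c ∧ b ≠ c ∧
    ∀ w, cadj M₁ M₂ v w ↔ (w = a ∨ w = b ∨ w = c) := by
  have ha₂' : ∃ P : Sylow 2 M₂, (P : Subgroup M₂) = (M₂ ⊓ M₁).subgroupOf M₂ := by
    rw [inf_comm]; exact ha₂
  rcases v with x | x
  · obtain ⟨g, rfl⟩ := QuotientGroup.mk_surjective x
    obtain ⟨m, hm, m', hm', m'', hm'', h1, h2, h3⟩ := nb_gen M₁ M₂ ha₁ hb₁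
    refine ⟨Sum.inr ((g * m : G) : G ⧸ M₂), Sum.inr ((g * m' : G) : G ⧸ M₂),
      Sum.inr ((g * m'' : G) : G ⧸ M₂), ?_, ?_, ?_, ?_⟩
    · rw [Ne, Sum.inr.injEq, mk_mul_eq_iff]; exact h1
    · rw [Ne, Sum.inr.injEq, mk_mul_eq_iff]; exact h2
    · rw [Ne, Sum.inr.injEq, mk_mul_eq_iff]; exact h3
    · intro w
      constructor
      · intro h
        obtain ⟨n, hn, rfl⟩ := cadj_inl M₁ M₂ h
        rcases cover_gen M₁ M₂ ha₁ hb₁ hm hm' hm'' h1 h2 h3 hn with h4 | h4 | h4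
        · left; rw [Sum.inr.injEq, eq_comm, mk_mul_eq_iff]; exact h4
        · right; left; rw [Sum.inr.injEq, eq_comm, mk_mul_eq_iff]; exact h4
        · right; right; rw [Sum.inr.injEq, eq_comm, mk_mul_eq_iff]; exact h4
      · rintro (rfl | rfl | rfl)
        · exact cadj_inl_mk M₁ M₂ hm
        · exact cadj_inl_mk M₁ M₂ hm'
        · exact cadj_inl_mk M₁ M₂ hm''
  · obtain ⟨g, rfl⟩ := QuotientGroup.mk_surjective x
    obtain ⟨m, hm, m', hm', m'', hm'', h1, h2, h3⟩ := nb_gen M₂ M₁ ha₂' hb₂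
    refine ⟨Sum.inl ((g * m : G) : G ⧸ M₁), Sum.inl ((g * m' : G) : G ⧸ M₁),
      Sum.inl ((g * m'' : G) : G ⧸ M₁), ?_, ?_, ?_, ?_⟩
    · rw [Ne, Sum.inl.injEq, mk_mul_eq_iff]; exact h1
    · rw [Ne, Sum.inl.injEq, mk_mul_eq_iff]; exact h2
    · rw [Ne, Sum.inl.injEq, mk_mul_eq_iff]; exact h3
    · intro w
      constructor
      · intro h
        obtain ⟨n, hn, rfl⟩ := cadj_inr M₁ M₂ h
        rcases cover_gen M₂ M₁ ha₂' hb₂ hm hm' hm'' h1 h2 h3 hn with h4 | h4 | h4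
        · left; rw [Sum.inl.injEq, eq_comm, mk_mul_eq_iff]; exact h4
        · right; left; rw [Sum.inl.injEq, eq_comm, mk_mul_eq_iff]; exact h4
        · right; right; rw [Sum.inl.injEq, eq_comm, mk_mul_eq_iff]; exact h4
      · rintro (rfl | rfl | rfl)
        · exact cadj_inr_mk M₁ M₂ hm
        · exact cadj_inr_mk M₁ M₂ hm'
        · exact cadj_inr_mk M₁ M₂ hm''

omit [Finite M₁] [Finite M₂] ha₁ ha₂ hb₁ hb₂ in
theorem cloc {v a b : (G ⧸ M₁) ⊕ (G ⧸ M₂)} (ha : cadj M₁ M₂ v a) (hb : cadj M₁ M₂ v b) :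
    ∃ g : G, g • v = v ∧ g • a = b := by
  rcases v with x | x
  · obtain ⟨g, rfl⟩ := QuotientGroup.mk_surjective x
    obtain ⟨m, hm, rfl⟩ := cadj_inl M₁ M₂ ha
    obtain ⟨m', hm', rfl⟩ := cadj_inl M₁ M₂ hb
    refine ⟨g * m' * m⁻¹ * g⁻¹, ?_, ?_⟩
    · rw [Sum.smul_inl, Sum.inl.injEq, fix_mk]
      have : g⁻¹ * (g * m' * m⁻¹ * g⁻¹) * g = m' * m⁻¹ := by group
      rw [this]
      exact M₁.mul_mem hm' (M₁.inv_mem hm)
    · rw [Sum.smul_inr, smul_mk]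
      have : g * m' * m⁻¹ * g⁻¹ * (g * m) = g * m' := by group
      rw [this]
  · obtain ⟨g, rfl⟩ := QuotientGroup.mk_surjective x
    obtain ⟨m, hm, rfl⟩ := cadj_inr M₁ M₂ ha
    obtain ⟨m', hm', rfl⟩ := cadj_inr M₁ M₂ hb
    refine ⟨g * m' * m⁻¹ * g⁻¹, ?_, ?_⟩
    · rw [Sum.smul_inr, Sum.inr.injEq, fix_mk]
      have : g⁻¹ * (g * m' * m⁻¹ * g⁻¹) * g = m' * m⁻¹ := by group
      rw [this]
      exact M₂.mul_mem hm' (M₂.inv_mem hm)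
    · rw [Sum.smul_inl, smul_mk]
      have : g * m' * m⁻¹ * g⁻¹ * (g * m) = g * m' := by group
      rw [this]

theorem cswap {v a b c : (G ⧸ M₁) ⊕ (G ⧸ M₂)} (ha : cadj M₁ M₂ v a) (hb : cadj M₁ M₂ v b)
    (hc : cadj M₁ M₂ v c) (hab : a ≠ b) (hac : a ≠ c) (hbc : b ≠ c) :
    ∃ g : G, g • v = v ∧ g • a = a ∧ g • b = c := by
  have ha₂' : ∃ P : Sylow 2 M₂, (P : Subgroup M₂) = (M₂ ⊓ M₁).subgroupOf M₂ := by
    rw [inf_comm]; exact ha₂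
  rcases v with x | x
  · obtain ⟨g0, rfl⟩ := QuotientGroup.mk_surjective x
    obtain ⟨m, hm, rfl⟩ := cadj_inl M₁ M₂ ha
    obtain ⟨m', hm', rfl⟩ := cadj_inl M₁ M₂ hb
    obtain ⟨m'', hm'', rfl⟩ := cadj_inl M₁ M₂ hc
    rw [Ne, Sum.inr.injEq, mk_mul_eq_iff] at hab hac hbc
    obtain ⟨t, ht, ht'⟩ := swap_gen M₁ M₂ ha₁ hb₁ (m := m⁻¹ * m') (m' := m⁻¹ * m'')
      (M₁.mul_mem (M₁.inv_mem hm) hm') (M₁.mul_mem (M₁.inv_mem hm) hm'') hab hac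
      (by
        have : (m⁻¹ * m')⁻¹ * (m⁻¹ * m'') = m'⁻¹ * m'' := by group
        rw [this]; exact hbc)
    refine ⟨g0 * m * t * (g0 * m)⁻¹, ?_, ?_, ?_⟩
    · rw [Sum.smul_inl, Sum.inl.injEq, fix_mk]
      have : g0⁻¹ * (g0 * m * t * (g0 * m)⁻¹) * g0 = m * t * m⁻¹ := by group
      rw [this]
      exact M₁.mul_mem (M₁.mul_mem hm ht.1) (M₁.inv_mem hm)
    · rw [Sum.smul_inr, Sum.inr.injEq, fix_mk]
      have : (g0 * m)⁻¹ * (g0 * m * t * (g0 * m)⁻¹) * (g0 * m) = t := by group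
      rw [this]
      exact ht.2
    · rw [Sum.smul_inr, Sum.inr.injEq, smul_mk, eq_comm, mk_eq_iff]
      have : (g0 * m'')⁻¹ * (g0 * m * t * (g0 * m)⁻¹ * (g0 * m')) =
          (m⁻¹ * m'')⁻¹ * (t * (m⁻¹ * m')) := by group
      rw [this]
      exact ht'
  · obtain ⟨g0, rfl⟩ := QuotientGroup.mk_surjective x
    obtain ⟨m, hm, rfl⟩ := cadj_inr M₁ M₂ ha
    obtain ⟨m', hm', rfl⟩ := cadj_inr M₁ M₂ hb
    obtain ⟨m'', hm'', rfl⟩ := cadj_inr M₁ M₂ hc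
    rw [Ne, Sum.inl.injEq, mk_mul_eq_iff] at hab hac hbc
    obtain ⟨t, ht, ht'⟩ := swap_gen M₂ M₁ ha₂' hb₂ (m := m⁻¹ * m') (m' := m⁻¹ * m'')
      (M₂.mul_mem (M₂.inv_mem hm) hm') (M₂.mul_mem (M₂.inv_mem hm) hm'') hab hac
      (by
        have : (m⁻¹ * m')⁻¹ * (m⁻¹ * m'') = m'⁻¹ * m'' := by group
        rw [this]; exact hbc)
    refine ⟨g0 * m * t * (g0 * m)⁻¹, ?_, ?_, ?_⟩
    · rw [Sum.smul_inr, Sum.inr.injEq, fix_mk]
      have : g0⁻¹ * (g0 * m * t * (g0 * m)⁻¹) * g0 = m * t * m⁻¹ := by group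
      rw [this]
      exact M₂.mul_mem (M₂.mul_mem hm ht.1) (M₂.inv_mem hm)
    · rw [Sum.smul_inl, Sum.inl.injEq, fix_mk]
      have : (g0 * m)⁻¹ * (g0 * m * t * (g0 * m)⁻¹) * (g0 * m) = t := by group
      rw [this]
      exact ht.2
    · rw [Sum.smul_inl, Sum.inl.injEq, smul_mk, eq_comm, mk_eq_iff]
      have : (g0 * m'')⁻¹ * (g0 * m * t * (g0 * m)⁻¹ * (g0 * m')) =
          (m⁻¹ * m'')⁻¹ * (t * (m⁻¹ * m')) := by group
      rw [this]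
      exact ht'

omit ha₁ ha₂ hb₁ hb₂ in
theorem cfin (v : (G ⧸ M₁) ⊕ (G ⧸ M₂)) : Finite (stabilizer G v) := by
  rcases v with x | x
  · obtain ⟨g, rfl⟩ := QuotientGroup.mk_surjective x
    have key : ∀ y : stabilizer G (Sum.inl (g : G ⧸ M₁) : (G ⧸ M₁) ⊕ (G ⧸ M₂)),
        g⁻¹ * (y : G) * g ∈ M₁ := by
      intro y
      have := y.2
      rw [mem_stabilizer_iff, Sum.smul_inl, Sum.inl.injEq, fix_mk] at this
      exact this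
    refine Finite.of_injective (fun y => (⟨g⁻¹ * (y : G) * g, key y⟩ : M₁)) ?_
    intro y z hyz
    have := congrArg Subtype.val hyz
    simp only [mul_left_inj, mul_right_inj] at this
    exact Subtype.ext this
  · obtain ⟨g, rfl⟩ := QuotientGroup.mk_surjective x
    have key : ∀ y : stabilizer G (Sum.inr (g : G ⧸ M₂) : (G ⧸ M₁) ⊕ (G ⧸ M₂)),
        g⁻¹ * (y : G) * g ∈ M₂ := by
      intro y
      have := y.2
      rw [mem_stabilizer_iff, Sum.smul_inr, Sum.inr.injEq, fix_mk] at this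
      exact this
    refine Finite.of_injective (fun y => (⟨g⁻¹ * (y : G) * g, key y⟩ : M₂)) ?_
    intro y z hyz
    have := congrArg Subtype.val hyz
    simp only [mul_left_inj, mul_right_inj] at this
    exact Subtype.ext this

omit [Finite M₁] [Finite M₂] ha₁ ha₂ hb₁ hb₂ in
/-- an edge is a translate of the base edge -/
theorem cedge {u v : (G ⧸ M₁) ⊕ (G ⧸ M₂)} (h : cadj M₁ M₂ u v) : ∃ g : G,
    (u = Sum.inl (g : G ⧸ M₁) ∧ v = Sum.inr (g : G ⧸ M₂)) ∨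
    (u = Sum.inr (g : G ⧸ M₂) ∧ v = Sum.inl (g : G ⧸ M₁)) := by
  rcases u with x | x <;> rcases v with y | y
  · exact h.elim
  · obtain ⟨k, rfl, rfl⟩ := h
    exact ⟨k, Or.inl ⟨rfl, rfl⟩⟩
  · obtain ⟨k, rfl, rfl⟩ := h
    exact ⟨k, Or.inr ⟨rfl, rfl⟩⟩
  · exact h.elim

omit [Finite M₁] [Finite M₂] ha₁ ha₂ hb₁ hb₂ in
theorem fix_inl {g x : G} : x • (Sum.inl (g : G ⧸ M₁) : (G ⧸ M₁) ⊕ (G ⧸ M₂)) =
    Sum.inl (g : G ⧸ M₁) ↔ g⁻¹ * x * g ∈ M₁ := by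
  rw [Sum.smul_inl, Sum.inl.injEq, fix_mk]

omit [Finite M₁] [Finite M₂] ha₁ ha₂ hb₁ hb₂ in
theorem fix_inr {g x : G} : x • (Sum.inr (g : G ⧸ M₂) : (G ⧸ M₁) ⊕ (G ⧸ M₂)) =
    Sum.inr (g : G ⧸ M₂) ↔ g⁻¹ * x * g ∈ M₂ := by
  rw [Sum.smul_inr, Sum.inr.injEq, fix_mk]

theorem ctwo {u v : (G ⧸ M₁) ⊕ (G ⧸ M₂)} (h : cadj M₁ M₂ u v) :
    IsPGroup 2 ↥(stabilizer G u ⊓ stabilizer G v) := by
  have key : ∀ g x : G, g⁻¹ * x * g ∈ M₁ → g⁻¹ * x * g ∈ M₂ → ∃ k : ℕ, x ^ 2 ^ k = 1 := by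
    intro g x h1 h2
    obtain ⟨k, hk⟩ := t_isPGroup M₁ M₂ ha₁ hb₁ ⟨h1, h2⟩
    refine ⟨k, ?_⟩
    have e : (g⁻¹ * x * g) ^ 2 ^ k = g⁻¹ * x ^ 2 ^ k * g := by
      have := conj_pow (a := g⁻¹) (b := x) (i := 2 ^ k)
      rw [inv_inv] at this
      exact this
    rw [e] at hk
    have : x ^ 2 ^ k = g * (g⁻¹ * x ^ 2 ^ k * g) * g⁻¹ := by group
    rw [this, hk]; group
  intro y
  have h1 := (Subgroup.mem_inf.mp y.2).1
  have h2 := (Subgroup.mem_inf.mp y.2).2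
  rw [mem_stabilizer_iff] at h1 h2
  obtain ⟨g, ⟨rfl, rfl⟩ | ⟨rfl, rfl⟩⟩ := cedge M₁ M₂ h
  · obtain ⟨k, hk⟩ := key g y ((fix_inl M₁ M₂).mp h1) ((fix_inr M₁ M₂).mp h2)
    exact ⟨k, Subtype.ext hk⟩
  · obtain ⟨k, hk⟩ := key g y ((fix_inl M₁ M₂).mp h2) ((fix_inr M₁ M₂).mp h1)
    exact ⟨k, Subtype.ext hk⟩

omit [Finite M₁] [Finite M₂] ha₁ ha₂ hb₁ hb₂ in
theorem cfaith (hc : ∀ N : Subgroup G, N ≤ M₁ ⊓ M₂ → (N.subgroupOf M₁).Normal →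
      (N.subgroupOf M₂).Normal → N = ⊥)
    {u v : (G ⧸ M₁) ⊕ (G ⧸ M₂)} (N : Subgroup G) (h : cadj M₁ M₂ u v)
    (hN : N ≤ stabilizer G u ⊓ stabilizer G v)
    (hu : ∀ g : G, g • u = u → ∀ n ∈ N, g * n * g⁻¹ ∈ N)
    (hv : ∀ g : G, g • v = v → ∀ n ∈ N, g * n * g⁻¹ ∈ N) : N = ⊥ := by
  have key : ∀ g : G, (∀ n ∈ N, g⁻¹ * n * g ∈ M₁ ⊓ M₂) →
      (∀ x : G, g⁻¹ * x * g ∈ M₁ → ∀ n ∈ N, x * n * x⁻¹ ∈ N) →
      (∀ x : G, g⁻¹ * x * g ∈ M₂ → ∀ n ∈ N, x * n * x⁻¹ ∈ N) → N = ⊥ := by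
    intro g h0 h1 h2
    have hmem : ∀ x, x ∈ N.comap (MulAut.conj g).toMonoidHom ↔ g * x * g⁻¹ ∈ N := by
      intro x
      simp [Subgroup.mem_comap, MulAut.conj_apply]
    have hbot : N.comap (MulAut.conj g).toMonoidHom = ⊥ := by
      apply hc
      · intro x hx
        rw [hmem] at hx
        have := h0 _ hx
        have e : g⁻¹ * (g * x * g⁻¹) * g = x := by group
        rwa [e] at this
      · refine ⟨fun n hn m => ?_⟩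
        rw [Subgroup.mem_subgroupOf, hmem] at hn ⊢
        have := h1 (g * m * g⁻¹) (by
          have e : g⁻¹ * (g * (m : G) * g⁻¹) * g = m := by group
          rw [e]; exact m.2) _ hn
        have e : g * ((m * n * m⁻¹ : M₁) : G) * g⁻¹ =
            g * (m : G) * g⁻¹ * (g * (n : G) * g⁻¹) * (g * (m : G) * g⁻¹)⁻¹ := by
          push_cast; group
        rw [e]; exact this
      · refine ⟨fun n hn m => ?_⟩
        rw [Subgroup.mem_subgroupOf, hmem] at hn ⊢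
        have := h2 (g * m * g⁻¹) (by
          have e : g⁻¹ * (g * (m : G) * g⁻¹) * g = m := by group
          rw [e]; exact m.2) _ hn
        have e : g * ((m * n * m⁻¹ : M₂) : G) * g⁻¹ =
            g * (m : G) * g⁻¹ * (g * (n : G) * g⁻¹) * (g * (m : G) * g⁻¹)⁻¹ := by
          push_cast; group
        rw [e]; exact this
    rw [Subgroup.eq_bot_iff_forall]
    intro n hn
    have h3 : g⁻¹ * n * g ∈ N.comap (MulAut.conj g).toMonoidHom := by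
      rw [hmem]
      have e : g * (g⁻¹ * n * g) * g⁻¹ = n := by group
      rw [e]; exact hn
    rw [hbot, Subgroup.mem_bot] at h3
    have : n = g * (g⁻¹ * n * g) * g⁻¹ := by group
    rw [this, h3]; group
  obtain ⟨g, ⟨rfl, rfl⟩ | ⟨rfl, rfl⟩⟩ := cedge M₁ M₂ h
  · refine key g (fun n hn => ?_) (fun x hx => hu x ((fix_inl M₁ M₂).mpr hx))
      (fun x hx => hv x ((fix_inr M₁ M₂).mpr hx))
    have := hN hn
    rw [Subgroup.mem_inf, mem_stabilizer_iff, mem_stabilizer_iff] at this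
    exact ⟨(fix_inl M₁ M₂).mp this.1, (fix_inr M₁ M₂).mp this.2⟩
  · refine key g (fun n hn => ?_) (fun x hx => hv x ((fix_inl M₁ M₂).mpr hx))
      (fun x hx => hu x ((fix_inr M₁ M₂).mpr hx))
    have := hN hn
    rw [Subgroup.mem_inf, mem_stabilizer_iff, mem_stabilizer_iff] at this
    exact ⟨(fix_inl M₁ M₂).mp this.2, (fix_inr M₁ M₂).mp this.1⟩

end

end Cfsg.Agent.H70.GeRed
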