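import Cfsg.Agent.H70.GeRedB
import Cfsg.Agent.H48.GeA

/-! The coset geometry; reduction theorem. -/

set_option autoImplicit false
set_option linter.unusedSectionVars false

open MulAction

namespace Cfsg.Agent.H70.GeRed

variable {G : Type*} [Group G] (M₁ M₂ : Subgroup G)

/-- the subgroups `Z` -/
def cZ : (G ⧸ M₁) ⊕ (G ⧸ M₂) → Subgroup G
  | Sum.inl x => conjQ M₁ (Z1 M₁ M₂) x
  | Sum.inr y => conjQ M₂ (Z0 M₁ M₂) y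

section
variable (hcen : ∀ x ∈ M₁ ⊓ M₂, x * x = 1 → (∀ t ∈ M₁ ⊓ M₂, t * x = x * t) →
  ∀ m ∈ M₂, m * x = x * m)
include hcen

theorem Z0_conj : ∀ m ∈ M₂, ∀ x ∈ Z0 M₁ M₂, m * x * m⁻¹ ∈ Z0 M₁ M₂ := by
  intro m hm x hx
  have := hcen x hx.1 hx.2.1 hx.2.2 m hm
  rw [this, mul_inv_cancel_right]
  exact hx

theorem mem_cZ_inr {g x : G} : x ∈ cZ M₁ M₂ (Sum.inr (g : G ⧸ M₂)) ↔ g⁻¹ * x * g ∈ Z0 M₁ M₂ :=
  mem_conjQ (Z0_conj M₁ M₂ hcen)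

omit hcen in
theorem mem_cZ_inl {g x : G} : x ∈ cZ M₁ M₂ (Sum.inl (g : G ⧸ M₁)) ↔ g⁻¹ * x * g ∈ Z1 M₁ M₂ :=
  mem_conjQ Z1_conj

omit hcen in
theorem cZ_conj (g : G) {v : (G ⧸ M₁) ⊕ (G ⧸ M₂)} {x : G} (hx : x ∈ cZ M₁ M₂ v) :
    g * x * g⁻¹ ∈ cZ M₁ M₂ (g • v) := by
  rcases v with y | y
  · intro k hk
    have h1 : ((g⁻¹ * k : G) : G ⧸ M₁) = y := by
      have : ((g⁻¹ * k : G) : G ⧸ M₁) = g⁻¹ • (k : G ⧸ M₁) := rfl
      rw [this, hk, inv_smul_smul]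
    have := hx _ h1
    have e : k⁻¹ * (g * x * g⁻¹) * k = (g⁻¹ * k)⁻¹ * x * (g⁻¹ * k) := by group
    rw [e]; exact this
  · intro k hk
    have h1 : ((g⁻¹ * k : G) : G ⧸ M₂) = y := by
      have : ((g⁻¹ * k : G) : G ⧸ M₂) = g⁻¹ • (k : G ⧸ M₂) := rfl
      rw [this, hk, inv_smul_smul]
    have := hx _ h1
    have e : k⁻¹ * (g * x * g⁻¹) * k = (g⁻¹ * k)⁻¹ * x * (g⁻¹ * k) := by group
    rw [e]; exact this

end

theorem stab_base : stabilizer G (Sum.inl ((1 : G) : G ⧸ M₁) : (G ⧸ M₁) ⊕ (G ⧸ M₂)) ⊓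
    stabilizer G (Sum.inr ((1 : G) : G ⧸ M₂) : (G ⧸ M₁) ⊕ (G ⧸ M₂)) = M₁ ⊓ M₂ := by
  ext x
  rw [Subgroup.mem_inf, mem_stabilizer_iff, mem_stabilizer_iff, fix_inl, fix_inr,
    Subgroup.mem_inf]
  simp

open Cfsg.Agent.H48.Ge in
/-- the coset geometry -/
def cGeo [Finite M₁] [Finite M₂]
    (ha₁ : ∃ P : Sylow 2 M₁, (P : Subgroup M₁) = (M₁ ⊓ M₂).subgroupOf M₁)
    (ha₂ : ∃ P : Sylow 2 M₂, (P : Subgroup M₂) = (M₁ ⊓ M₂).subgroupOf M₂)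
    (hb₁ : Nonempty (M₁ ⧸ Cfsg.pCore 2 M₁ ≃* Equiv.Perm (Fin 3)))
    (hb₂ : Nonempty (M₂ ⧸ Cfsg.pCore 2 M₂ ≃* Equiv.Perm (Fin 3)))
    (hc : ∀ N : Subgroup G, N ≤ M₁ ⊓ M₂ → (N.subgroupOf M₁).Normal → (N.subgroupOf M₂).Normal →
      N = ⊥)
    (hcen : ∀ x ∈ M₁ ⊓ M₂, x * x = 1 → (∀ t ∈ M₁ ⊓ M₂, t * x = x * t) →
      ∀ m ∈ M₂, m * x = x * m) : Geo G ((G ⧸ M₁) ⊕ (G ⧸ M₂)) where
  adj := cadj M₁ M₂
  ty := cty M₁ M₂
  symm := cadj_symm M₁ M₂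
  adj_ty := cadj_ty M₁ M₂
  adj_smul := fun g _ _ => cadj_smul M₁ M₂ g
  ty_smul := cty_smul M₁ M₂
  trans := ctrans M₁ M₂
  nb := cnb M₁ M₂ ha₁ ha₂ hb₁ hb₂
  loc := cloc M₁ M₂
  swap := cswap M₁ M₂ ha₁ ha₂ hb₁ hb₂
  fin := cfin M₁ M₂
  two := ctwo M₁ M₂ ha₁ ha₂ hb₁ hb₂
  faith := cfaith M₁ M₂ hc
  Z := cZ M₁ M₂
  Z_conj := fun g _ _ hx => cZ_conj M₁ M₂ g hx
  Z_ne := by
    intro v h
    obtain ⟨x, hxT, hx1, hx2, hxc⟩ := exists_invol M₁ M₂ ha₁ hb₁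
    have hx0 : x ∈ Z0 M₁ M₂ := ⟨hxT, hx2, hxc⟩
    rcases v with y | y
    · obtain ⟨g, rfl⟩ := QuotientGroup.mk_surjective y
      have h1 : g * x * g⁻¹ ∈ cZ M₁ M₂ (Sum.inl (g : G ⧸ M₁)) := by
        rw [mem_cZ_inl]
        have e : g⁻¹ * (g * x * g⁻¹) * g = x := by group
        rw [e]; exact Z0_le_Z1 hx0
      rw [h, Subgroup.mem_bot, conj_eq_one_iff] at h1
      exact hx1 h1
    · obtain ⟨g, rfl⟩ := QuotientGroup.mk_surjective y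
      have h1 : g * x * g⁻¹ ∈ cZ M₁ M₂ (Sum.inr (g : G ⧸ M₂)) := by
        rw [mem_cZ_inr M₁ M₂ hcen]
        have e : g⁻¹ * (g * x * g⁻¹) * g = x := by group
        rw [e]; exact hx0
      rw [h, Subgroup.mem_bot, conj_eq_one_iff] at h1
      exact hx1 h1
  Z_fix := by
    intro v x hx
    rcases v with y | y
    · obtain ⟨g, rfl⟩ := QuotientGroup.mk_surjective y
      rw [mem_cZ_inl] at hx
      exact (fix_inl M₁ M₂).mpr (Z1_le hx)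
    · obtain ⟨g, rfl⟩ := QuotientGroup.mk_surjective y
      rw [mem_cZ_inr M₁ M₂ hcen] at hx
      exact (fix_inr M₁ M₂).mpr hx.1.2
  Z_fix2 := by
    intro β γ x hβ hadj hx
    obtain ⟨g, ⟨rfl, rfl⟩ | ⟨rfl, rfl⟩⟩ := cedge M₁ M₂ hadj
    · simp [cty] at hβ
    · rw [mem_cZ_inr M₁ M₂ hcen] at hx
      exact (fix_inl M₁ M₂).mpr hx.1.1
  Z_cen := by
    intro β x k hβ hx hk
    rcases β with y | y
    · simp [cty] at hβ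
    · obtain ⟨g, rfl⟩ := QuotientGroup.mk_surjective y
      rw [mem_cZ_inr M₁ M₂ hcen] at hx
      rw [fix_inr] at hk
      have h1 := hcen _ hx.1 hx.2.1 hx.2.2 _ hk
      have e1 : k * x = g * (g⁻¹ * k * g * (g⁻¹ * x * g)) * g⁻¹ := by group
      have e2 : x * k = g * (g⁻¹ * x * g * (g⁻¹ * k * g)) * g⁻¹ := by group
      rw [e1, e2, h1]
  Z_sq2 := by
    intro β x hβ hx
    rcases β with y | y
    · simp [cty] at hβ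
    · obtain ⟨g, rfl⟩ := QuotientGroup.mk_surjective y
      rw [mem_cZ_inr M₁ M₂ hcen] at hx
      have h1 := hx.2.1
      have e1 : x * x = g * (g⁻¹ * x * g * (g⁻¹ * x * g)) * g⁻¹ := by group
      rw [e1, h1]; group
  Z_om := by
    intro β γ x hβ hadj hx1 hx2 hxx hxt
    obtain ⟨g, ⟨rfl, rfl⟩ | ⟨rfl, rfl⟩⟩ := cedge M₁ M₂ hadj
    · simp [cty] at hβ
    · rw [mem_cZ_inr M₁ M₂ hcen]
      refine ⟨⟨(fix_inl M₁ M₂).mp hx2, (fix_inr M₁ M₂).mp hx1⟩, ?_, ?_⟩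
      · have e1 : g⁻¹ * x * g * (g⁻¹ * x * g) = g⁻¹ * (x * x) * g := by group
        rw [e1, hxx]; group
      · intro t ht
        have h1 := hxt (g * t * g⁻¹) ((fix_inr M₁ M₂).mpr (by
            have e : g⁻¹ * (g * t * g⁻¹) * g = t := by group
            rw [e]; exact ht.2)) ((fix_inl M₁ M₂).mpr (by
            have e : g⁻¹ * (g * t * g⁻¹) * g = t := by group
            rw [e]; exact ht.1))
        have e1 : t * (g⁻¹ * x * g) = g⁻¹ * (g * t * g⁻¹ * x) * g := by group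
        have e2 : g⁻¹ * x * g * t = g⁻¹ * (x * (g * t * g⁻¹)) * g := by group
        rw [e1, e2, h1]
  Z_up := by
    intro β γ hβ hadj x hx
    obtain ⟨g, ⟨rfl, rfl⟩ | ⟨rfl, rfl⟩⟩ := cedge M₁ M₂ hadj
    · simp [cty] at hβ
    · rw [mem_cZ_inr M₁ M₂ hcen] at hx
      rw [mem_cZ_inl]
      exact Z0_le_Z1 hx
  Z_gen := by
    intro γ K hγ h x hx
    rcases γ with y | y
    · obtain ⟨g, rfl⟩ := QuotientGroup.mk_surjective y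
      rw [mem_cZ_inl] at hx
      have hle : Z1 M₁ M₂ ≤ K.comap (MulAut.conj g).toMonoidHom := by
        rw [Z1, Subgroup.closure_le]
        rintro z ⟨m, hm, w, hw, rfl⟩
        have h1 := h _ (cadj_inl_mk M₁ M₂ (a := g) hm)
        have h2 : g * m * w * (g * m)⁻¹ ∈ cZ M₁ M₂ (Sum.inr ((g * m : G) : G ⧸ M₂)) := by
          rw [mem_cZ_inr M₁ M₂ hcen]
          have e : (g * m)⁻¹ * (g * m * w * (g * m)⁻¹) * (g * m) = w := by group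
          rw [e]; exact hw
        have h3 := h1 h2
        have e : g * m * w * (g * m)⁻¹ = g * (m * w * m⁻¹) * g⁻¹ := by group
        rw [e] at h3
        simpa [Subgroup.mem_comap, MulAut.conj_apply] using h3
      have h4 := hle hx
      rw [Subgroup.mem_comap] at h4
      have e : (MulAut.conj g).toMonoidHom (g⁻¹ * x * g) = x := by
        simp [MulAut.conj_apply]; group
      rwa [e] at h4
    · simp [cty] at hγ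

open Cfsg.Agent.H48.Ge in
theorem red.{u} {G : Type u} [Group G]
    (hB : ∀ (G : Type u) (V : Type u) [Group G] [MulAction G V] (Γ : Geo G V) {u v : V},
      Γ.adj u v → Nat.card ↥(stabilizer G u ⊓ stabilizer G v) ≤ 128)
    (M₁ M₂ : Subgroup G) [Finite M₁] [Finite M₂]
    (ha₁ : ∃ P : Sylow 2 M₁, (P : Subgroup M₁) = (M₁ ⊓ M₂).subgroupOf M₁)
    (ha₂ : ∃ P : Sylow 2 M₂, (P : Subgroup M₂) = (M₁ ⊓ M₂).subgroupOf M₂)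
    (hb₁ : Nonempty (M₁ ⧸ Cfsg.pCore 2 M₁ ≃* Equiv.Perm (Fin 3)))
    (hb₂ : Nonempty (M₂ ⧸ Cfsg.pCore 2 M₂ ≃* Equiv.Perm (Fin 3)))
    (hc : ∀ N : Subgroup G, N ≤ M₁ ⊓ M₂ → (N.subgroupOf M₁).Normal → (N.subgroupOf M₂).Normal →
      N = ⊥)
    (hcen : ∀ x ∈ M₁ ⊓ M₂, x * x = 1 → (∀ t ∈ M₁ ⊓ M₂, t * x = x * t) →
      ∀ m ∈ M₂, m * x = x * m) :
    Nat.card ↥(M₁ ⊓ M₂) ≤ 2 ^ 7 := by
  have h := hB G ((G ⧸ M₁) ⊕ (G ⧸ M₂)) (cGeo M₁ M₂ ha₁ ha₂ hb₁ hb₂ hc hcen)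
    (u := Sum.inl ((1 : G) : G ⧸ M₁)) (v := Sum.inr ((1 : G) : G ⧸ M₂)) ⟨1, rfl, rfl⟩
  rw [stab_base] at h
  exact h

end Cfsg.Agent.H70.GeRed
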