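import Mathlib
import Cfsg.Agent.H70.Transv
import Cfsg.Agent.Solv.Frattini

/-!
# The p-group part of the Hall–Wielandt theorem. Owner: helper70.
-/

set_option autoImplicit false

namespace Cfsg.Agent.H70

open Subgroup MonoidHom MulAction

variable {G : Type*} [Group G] {A : Type*} [CommGroup A] {p : ℕ}

theorem choose_pred_mod (hp : p.Prime) {k : ℕ} (hk : k < p) :
    (((p - 1).choose k : ℕ) : ZMod p) = (-1) ^ k := by
  induction k with
  | zero => simp
  | succ k ih =>
    have h1 : p.choose (k + 1) = (p - 1).choose k + (p - 1).choose (k + 1) := by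
      obtain ⟨q, rfl⟩ : ∃ q, p = q + 1 := ⟨p - 1, by have := hp.pos; omega⟩
      rw [Nat.add_sub_cancel]
      exact Nat.choose_succ_succ q k
    have h2 : ((p.choose (k + 1) : ℕ) : ZMod p) = 0 := by
      rw [ZMod.natCast_eq_zero_iff]
      exact hp.dvd_choose_self (by omega) hk
    rw [h1, Nat.cast_add, ih (by omega)] at h2
    rw [pow_succ]
    linear_combination h2

theorem coef_mod (hp : p.Prime) {k : ℕ} (hk : k < p) :
    ∃ c : ℤ, (-1 : ℤ) ^ (p - 1 - k) * ((p - 1).choose k : ℕ) = 1 + c * p := by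
  have h1 : (((-1 : ℤ) ^ (p - 1 - k) * ((p - 1).choose k : ℕ) - 1 : ℤ) : ZMod p) = 0 := by
    push_cast
    rw [choose_pred_mod hp hk, ← pow_add]
    have e : p - 1 - k + k = p - 1 := by omega
    rw [e]
    rcases hp.eq_two_or_odd' with h2 | h2
    · subst h2
      decide
    · have : Even (p - 1) := by
        obtain ⟨m, hm⟩ := h2
        exact ⟨m, by omega⟩
      rw [this.neg_one_pow, sub_self]
  rw [ZMod.intCast_zmod_eq_zero_iff_dvd] at h1 
  obtain ⟨c, hc⟩ := h1
  exact ⟨c, by rw [mul_comm c, ← hc]; ring⟩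

/-- the `(p-1)`-st difference is the sum -/
theorem fwdDiff_pred (hp : p.Prime) {B : Type*} [AddCommGroup B] (hB : ∀ b : B, p • b = 0)
    (f : ℕ → B) : (fwdDiff 1)^[p - 1] f 0 = ∑ k ∈ Finset.range p, f k := by
  rw [fwdDiff_iter_eq_sum_shift]
  have e : p - 1 + 1 = p := by have := hp.pos; omega
  rw [e]
  refine Finset.sum_congr rfl fun k hk => ?_
  obtain ⟨c, hc⟩ := coef_mod hp (Finset.mem_range.1 hk)
  rw [hc, add_smul, one_smul, mul_smul, natCast_zsmul, hB, smul_zero, add_zero]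
  simp

theorem hext_mul {S : Subgroup G} (μ : S →* A) {a b : G} (ha : a ∈ S) (hb : b ∈ S) :
    hext S μ (a * b) = hext S μ a * hext S μ b := by
  rw [hext_of_mem μ ha, hext_of_mem μ hb, hext_of_mem μ (mul_mem ha hb), ← map_mul]
  rfl

theorem hext_inv {S : Subgroup G} (μ : S →* A) {a : G} (ha : a ∈ S) :
    hext S μ (a⁻¹) = (hext S μ a)⁻¹ := by
  rw [hext_of_mem μ ha, hext_of_mem μ (inv_mem ha), ← map_inv]
  rfl

/-- iterated commutators and differences -/
theorem iter_comm {S : Subgroup G} [hS : S.Normal] (μ : S →* A) (z : G) (k : ℕ) :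
    ∀ w : G, w ∈ S →
    (fun y : G => y⁻¹ * z⁻¹ * y * z)^[k] w ∈ S ∧
    (fun j : ℕ => Additive.ofMul (hext S μ ((z ^ j)⁻¹ *
      ((fun y : G => y⁻¹ * z⁻¹ * y * z)^[k] w) * z ^ j))) =
    (fwdDiff 1)^[k] (fun j : ℕ => Additive.ofMul (hext S μ ((z ^ j)⁻¹ * w * z ^ j))) := by
  induction k with
  | zero => intro w hw; exact ⟨hw, rfl⟩
  | succ k ih =>
    intro w hw
    have hc : ∀ (x : G), x ∈ S → ∀ g : G, g⁻¹ * x * g ∈ S := fun x hx g => by
      have := hS.conj_mem x hx g⁻¹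
      simpa using this
    have hw' : w⁻¹ * z⁻¹ * w * z ∈ S := by
      have e : w⁻¹ * z⁻¹ * w * z = w⁻¹ * (z⁻¹ * w * z) := by group
      rw [e]
      exact mul_mem (inv_mem hw) (hc w hw z)
    obtain ⟨h1, h2⟩ := ih _ hw'
    rw [Function.iterate_succ_apply, Function.iterate_succ_apply]
    refine ⟨h1, h2.trans ?_⟩
    congr 1
    funext j
    rw [fwdDiff]
    have e : (z ^ j)⁻¹ * (w⁻¹ * z⁻¹ * w * z) * z ^ j =
        ((z ^ j)⁻¹ * w * z ^ j)⁻¹ * ((z ^ (j + 1))⁻¹ * w * z ^ (j + 1)) := by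
      rw [pow_succ']
      have e1 : z * z ^ j = z ^ j * z := (Commute.refl z).pow_right j
      rw [e1]
      have e2 : z ^ j * z = z * z ^ j := e1.symm
      calc (z ^ j)⁻¹ * (w⁻¹ * z⁻¹ * w * z) * z ^ j
          = (z ^ j)⁻¹ * w⁻¹ * (z⁻¹ * w * (z * z ^ j)) := by group
        _ = (z ^ j)⁻¹ * w⁻¹ * (z⁻¹ * w * (z ^ j * z)) := by rw [e1]
        _ = (z ^ j)⁻¹ * w⁻¹ * z ^ j * ((z * z ^ j)⁻¹ * w * (z ^ j * z)) := by group
        _ = _ := by rw [e1]; group
    rw [e, hext_mul μ (inv_mem (hc w hw _)) (hc w hw _), hext_inv μ (hc w hw _), ofMul_mul,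
      ofMul_inv, sub_eq_add_neg, add_comm]

/-- the product over the conjugates by powers of `z` -/
theorem prod_conj_pow (hp : p.Prime) (hA : ∀ a : A, a ^ p = 1) {S : Subgroup G} [hS : S.Normal]
    (μ : S →* A) (z w : G) (hw : w ∈ S)
    (h : (fun y : G => y⁻¹ * z⁻¹ * y * z)^[p - 1] w = 1) :
    ∏ j ∈ Finset.range p, hext S μ ((z ^ j)⁻¹ * w * z ^ j) = 1 := by
  have h1 := (iter_comm μ z (p - 1) w hw).2
  rw [h] at h1
  have h2 := fwdDiff_pred hp (B := Additive A) (fun b => by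
    have := hA b.toMul
    exact this) (fun j : ℕ => Additive.ofMul (hext S μ ((z ^ j)⁻¹ * w * z ^ j)))
  rw [← h1] at h2
  have h3 : ∑ j ∈ Finset.range p, Additive.ofMul (hext S μ ((z ^ j)⁻¹ * w * z ^ j)) = 0 := by
    rw [← h2]
    have e : (z ^ 0)⁻¹ * 1 * z ^ 0 = (1 : G) := by simp
    simp only [e]
    rw [hext_of_mem μ (one_mem S)]
    exact congrArg Additive.ofMul (map_one μ)
  exact h3

/-- The transversal formula for a subgroup `S` of prime index: `Q` not inside `S`. -/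
theorem prod_prime_index (hp : p.Prime) (hA : ∀ a : A, a ^ p = 1) {S : Subgroup G}
    [hS : S.Normal] (hSi : S.index = p) [Fintype (G ⧸ S)]
    (μ : S →* A) (z w : G) (hz : z ∉ S) (hw : w ∈ S)
    (h : (fun y : G => y⁻¹ * z⁻¹ * y * z)^[p - 1] w = 1) :
    ∏ y : G ⧸ S, hext S μ (y.out⁻¹ * w * y.out) = 1 := by
  have hcard : Nat.card (G ⧸ S) = p := hSi
  have hord : orderOf (z : G ⧸ S) = p := by
    have h1 : orderOf (z : G ⧸ S) ∣ p := by
      rw [← hcard]; exact orderOf_dvd_natCard _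
    rcases (Nat.dvd_prime hp).1 h1 with h2 | h2
    · rw [orderOf_eq_one_iff, QuotientGroup.eq_one_iff] at h2
      exact absurd h2 hz
    · exact h2
  rw [← prod_conj_pow hp hA μ z w hw h]
  rw [Finset.prod_range]
  have hbij : Function.Bijective (fun j : Fin p => ((z ^ (j : ℕ) : G) : G ⧸ S)) := by
    rw [Fintype.bijective_iff_injective_and_card]
    constructor
    · intro i j hij
      have hij' : (z : G ⧸ S) ^ (i : ℕ) = (z : G ⧸ S) ^ (j : ℕ) := hij
      have := pow_injOn_Iio_orderOf (x := (z : G ⧸ S)) (by rw [hord]; exact i.2)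
        (by rw [hord]; exact j.2) hij'
      exact Fin.ext this
    · rw [Fintype.card_fin, ← hcard, Nat.card_eq_fintype_card]
  symm
  apply Fintype.prod_bijective _ hbij
  intro j
  apply hext_conj_eq
  exact (QuotientGroup.out_eq' _).symm

/-- The product over the cosets of `R`. -/
theorem prod_quot_eq_one [Finite G] [hpf : Fact p.Prime] (hG : IsPGroup p G)
    (hA : ∀ a : A, a ^ p = 1)
    (R : Subgroup G) [Fintype (G ⧸ R)] (φ : R →* A) (u : G) (Q : Subgroup G)
    (hgen : Q ⊔ zpowers u = ⊤) (hQR : ¬ Q ≤ R)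
    (hcomm : ∀ z ∈ Q, (fun y : G => y⁻¹ * z⁻¹ * y * z)^[p - 1] u = 1)
    (hpow : ∀ x : G, ∀ m : ℕ, 1 < m → m ∣ orderOf u → hext R φ (x⁻¹ * u ^ m * x) = 1) :
    ∏ y : G ⧸ R, hext R φ (y.out⁻¹ * u * y.out) = 1 := by
  classical
  have hRtop : R ≠ ⊤ := fun h => hQR (by rw [h]; exact le_top)
  obtain ⟨S, hS, hRS⟩ := (eq_top_or_exists_le_coatom R).resolve_left hRtop
  obtain ⟨hSn, hSi⟩ := Cfsg.Agent.Solv.coatom_of_pGroup hG S hS
  by_cases huS : u ∈ S
  · obtain ⟨z, hzQ, hzS⟩ : ∃ z ∈ Q, z ∉ S := by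
      by_contra hcon
      push Not at hcon
      apply hS.1
      rw [eq_top_iff, ← hgen]
      exact sup_le hcon (by rwa [zpowers_le])
    -- the homomorphism on `R` as a subgroup of `S`
    let _ : Fintype (G ⧸ S) := Fintype.ofFinite _
    let _ : Fintype (S ⧸ R.subgroupOf S) := Fintype.ofFinite _
    let φ' : R.subgroupOf S →* A := φ.comp (Subgroup.subgroupOfEquivOfLe hRS).toMonoidHom
    have hφ' : ∀ x : S, hext (R.subgroupOf S) φ' x = hext R φ x := by
      intro x
      by_cases hx : (x : G) ∈ R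
      · rw [hext_of_mem φ hx, hext_of_mem φ' (show x ∈ R.subgroupOf S from hx)]
        rfl
      · rw [hext_of_notMem φ hx, hext_of_notMem φ' (show x ∉ R.subgroupOf S from hx)]
    let μ : S →* A := MonoidHom.transfer φ'
    have hconjS : ∀ g : G, g⁻¹ * u * g ∈ S := fun g => by
      have := hSn.conj_mem u huS g⁻¹
      simpa using this
    have hμ : ∀ g : G, μ ⟨g⁻¹ * u * g, hconjS g⟩ =
        ∏ y : S ⧸ R.subgroupOf S, hext R φ ((g * (y.out : G))⁻¹ * u * (g * (y.out : G))) := by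
      intro g
      have h1 := transfer_eq_prod (R.subgroupOf S) φ' ⟨g⁻¹ * u * g, hconjS g⟩ (by
        intro x m hm hmd _
        have h2 := hφ' (x⁻¹ * ⟨g⁻¹ * u * g, hconjS g⟩ ^ m * x)
        rw [h2]
        have e : ((x⁻¹ * (⟨g⁻¹ * u * g, hconjS g⟩ : S) ^ m * x : S) : G) =
            (g * (x : G))⁻¹ * u ^ m * (g * (x : G)) := by
          change (x : G)⁻¹ * (g⁻¹ * u * g) ^ m * (x : G) = _
          have e2 : (g⁻¹ * u * g) ^ m = g⁻¹ * u ^ m * g := by
            have := conj_pow (a := g⁻¹) (b := u) (i := m)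
            simpa using this
          rw [e2]; group
        rw [e]
        apply hpow _ m hm
        refine hmd.trans ?_
        have e3 : orderOf (⟨g⁻¹ * u * g, hconjS g⟩ : S) = orderOf (g⁻¹ * u * g) :=
          (orderOf_injective S.subtype S.subtype_injective _).symm
        rw [e3]
        have e4 : orderOf (g⁻¹ * u * g) = orderOf u := by
          have := orderOf_injective (MulAut.conj g⁻¹).toMonoidHom (MulAut.conj g⁻¹).injective u
          simpa [MulAut.conj_apply] using this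
        rw [e4])
      refine h1.trans (Finset.prod_congr rfl fun y _ => ?_)
      rw [hφ']
      congr 1
      change (y.out : G)⁻¹ * (g⁻¹ * u * g) * (y.out : G) = _
      group
    have h2 : ∏ y : G ⧸ R, hext R φ (y.out⁻¹ * u * y.out) =
        ∏ a : G ⧸ S, ∏ b : S ⧸ R.subgroupOf S,
          hext R φ ((a.out * (b.out : G))⁻¹ * u * (a.out * (b.out : G))) := by
      rw [← Fintype.prod_prod_type']
      refine (Fintype.prod_equiv (Subgroup.quotientEquivProdOfLE hRS).symm _ _ ?_).symm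
      rintro ⟨a, b⟩
      apply hext_conj_eq
      rw [QuotientGroup.out_eq']
      conv_rhs => rw [← QuotientGroup.out_eq' b]
      rfl
    rw [h2]
    have h3 := prod_prime_index hpf.out hA hSi μ z u hzS huS (hcomm z hzQ)
    rw [← h3]
    refine Finset.prod_congr rfl fun a _ => ?_
    rw [← hμ a.out, hext_of_mem μ (hconjS a.out)]
  · apply Fintype.prod_eq_one
    intro y
    apply hext_of_notMem
    intro hc
    apply huS
    have h1 := hRS hc
    have h2 := hSn.conj_mem _ h1 y.out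
    have e : y.out * (y.out⁻¹ * u * y.out) * y.out⁻¹ = u := by group
    rwa [e] at h2

end Cfsg.Agent.H70
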