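import Mathlib
import Cfsg.Prelude.Def_Transfer
import Cfsg.Agent.Transfer.Fusion
import Cfsg.Agent.Transfer.Tate
import Cfsg.Agent.Solv.Frattini

/-!
# Tate's theorem in general form (after the special case in `Transfer.Tate`). Owner: helper70.
-/

set_option autoImplicit false

namespace Cfsg.Agent.H70

open Subgroup Cfsg.Agent.Transfer

open scoped Pointwise commutatorElement

variable {G : Type*} [Group G] {p : ℕ}

/-- **Tate's theorem**, general form: `P` is any subgroup of index prime to `p`, `ρ` a homomorphism of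
`P` onto the `p`-group `B` with kernel in the normal subgroup `K = O^p(K)` of `G`; if
`ρ(K ∩ P) ≤ Φ(B)` then `ρ(K ∩ P) = 1`. -/
theorem tate_gen [Fact p.Prime] [Finite G] (P : Subgroup G) (hPi : P.index.Coprime p)
    (K : Subgroup G) [hKn : K.Normal]
    (hK : Cfsg.pResidual p K = ⊤) {B : Type*} [Group B] [Finite B] (hB : IsPGroup p B)
    (ρ : P →* B) (hρ : Function.Surjective ρ) (hker : ∀ x : P, ρ x = 1 → (x : G) ∈ K)
    (hΦ : (K.subgroupOf (P : Subgroup G)).map ρ ≤ frattini B) :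
    (K.subgroupOf (P : Subgroup G)).map ρ = ⊥ := by
  classical
  set Q : Subgroup B := (K.subgroupOf (P : Subgroup G)).map ρ with hQ
  have hQn : Q.Normal := by
    rw [hQ]; exact Subgroup.Normal.map inferInstance ρ hρ
  set S : Subgroup B := ⁅Q, (⊤ : Subgroup B)⁆ with hS
  have hSn : S.Normal := by rw [hS]; infer_instance
  set π : B →* B ⧸ S := QuotientGroup.mk' S with hπ
  have hπs : Function.Surjective π := QuotientGroup.mk'_surjective S
  set A : Subgroup (B ⧸ S) := Q.map π with hA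
  have hAc : A ≤ center (B ⧸ S) := by
    rintro _ ⟨q, hq, rfl⟩
    rw [mem_center_iff]
    intro y
    obtain ⟨x, rfl⟩ := hπs y
    rw [← map_mul, ← map_mul, hπ, QuotientGroup.mk'_apply, QuotientGroup.mk'_apply,
      QuotientGroup.eq]
    have h1 : ⁅q⁻¹, x⁻¹⁆ ∈ S := commutator_mem_commutator (inv_mem hq) (mem_top _)
    rw [commutatorElement_def] at h1
    have e : (x * q)⁻¹ * (q * x) = q⁻¹ * x⁻¹ * q⁻¹⁻¹ * x⁻¹⁻¹ := by group
    rw [e]; exact h1
  have hAΦ : A ≤ frattini (B ⧸ S) := by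
    rw [hA, Subgroup.map_le_iff_le_comap]
    exact hΦ.trans (frattini_le_comap_frattini_of_surjective hπs)
  let _ : CommGroup A := { (inferInstance : Group A) with
    mul_comm := fun a b => Subtype.ext ((mem_center_iff.1 (hAc b.2)) a) }
  let σ : P →* B ⧸ S := π.comp ρ
  have hσ : ∀ x, σ x = π (ρ x) := fun x => rfl
  have hσs : Function.Surjective σ := hπs.comp hρ
  -- the central extension
  let E : Subgroup (G × (B ⧸ S)) :=
    { carrier := {e | ∃ x : P, e.2 = σ x ∧ e.1⁻¹ * (x : G) ∈ K}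
      one_mem' := ⟨1, by simp, by simp⟩
      mul_mem' := by
        rintro ⟨g, y⟩ ⟨g', y'⟩ ⟨x, hx, hxK⟩ ⟨x', hx', hxK'⟩
        refine ⟨x * x', ?_, ?_⟩
        · simp only at hx hx'
          simp [hx, hx']
        · have e : (g * g')⁻¹ * ((x * x' : P) : G) =
              (g'⁻¹ * x') * ((x' : G)⁻¹ * (g⁻¹ * x) * (x' : G)) := by
            change (g * g')⁻¹ * ((x : G) * (x' : G)) = _; group
          change (g * g')⁻¹ * ((x * x' : P) : G) ∈ K
          rw [e]
          refine mul_mem hxK' ?_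
          have := hKn.conj_mem _ hxK (x' : G)⁻¹
          simpa using this
      inv_mem' := by
        rintro ⟨g, y⟩ ⟨x, hx, hxK⟩
        refine ⟨x⁻¹, ?_, ?_⟩
        · simp only at hx
          simp [hx]
        · have e : ((g⁻¹)⁻¹ * ((x⁻¹ : P) : G)) = g * (g⁻¹ * (x : G))⁻¹ * g⁻¹ := by
            change (g⁻¹)⁻¹ * (x : G)⁻¹ = _; group
          change ((g⁻¹)⁻¹ * ((x⁻¹ : P) : G)) ∈ K
          rw [e]
          exact hKn.conj_mem _ (inv_mem hxK) g }
  have hE : ∀ (g : G) (y : B ⧸ S), (g, y) ∈ E ↔ ∃ x : P, y = σ x ∧ g⁻¹ * (x : G) ∈ K :=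
    fun g y => Iff.rfl
  let f : E →* G := (MonoidHom.fst G (B ⧸ S)).comp E.subtype
  let s : E →* B ⧸ S := (MonoidHom.snd G (B ⧸ S)).comp E.subtype
  let U : Subgroup E := (P : Subgroup G).comap f
  have hPf : (P : Subgroup G) ≤ f.range := by
    intro x hx
    exact ⟨⟨(x, σ ⟨x, hx⟩), ⟨⟨x, hx⟩, rfl, by simp⟩⟩, rfl⟩
  have hUi : U.index.Coprime p := by
    have h1 : U.index = (P : Subgroup G).relIndex f.range := index_comap _ f
    rw [h1]
    exact Nat.Coprime.coprime_dvd_left (relIndex_dvd_index_of_le hPf) hPi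
  -- the homomorphism on `U`
  have hψ : ∀ u : U, (σ ⟨(u : E).1.1, u.2⟩)⁻¹ * (u : E).1.2 ∈ A := by
    rintro ⟨⟨⟨g, y⟩, x, hx, hxK⟩, hg⟩
    simp only at hx hxK
    change g ∈ (P : Subgroup G) at hg
    refine ⟨ρ (⟨g, hg⟩⁻¹ * x), ⟨⟨g, hg⟩⁻¹ * x, ?_, rfl⟩, ?_⟩
    · change _ ∈ K.subgroupOf (P : Subgroup G)
      rw [mem_subgroupOf]
      simpa using hxK
    · change π (ρ (⟨g, hg⟩⁻¹ * x)) = (σ ⟨g, hg⟩)⁻¹ * y
      rw [hx, hσ, hσ, map_mul, map_inv, map_mul, map_inv]
  let ψ : U →* A :=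
    { toFun := fun u => ⟨_, hψ u⟩
      map_one' := by
        ext
        change (σ (1 : P))⁻¹ * (1 : B ⧸ S) = 1
        rw [map_one, inv_one, one_mul]
      map_mul' := by
        intro u v
        ext
        have e1 : (⟨((u * v : U) : E).1.1, (u * v).2⟩ : P) =
          ⟨(u : E).1.1, u.2⟩ * ⟨(v : E).1.1, v.2⟩ := rfl
        have hc := (mem_center_iff.1 (hAc (hψ u)))
        change (σ ⟨((u * v : U) : E).1.1, (u * v).2⟩)⁻¹ * ((u : E).1.2 * (v : E).1.2) =
          ((σ ⟨(u : E).1.1, u.2⟩)⁻¹ * (u : E).1.2) * ((σ ⟨(v : E).1.1, v.2⟩)⁻¹ * (v : E).1.2)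
        rw [e1, map_mul, mul_inv_rev]
        have := hc ((σ ⟨(v : E).1.1, v.2⟩)⁻¹)
        calc (σ ⟨(v : E).1.1, v.2⟩)⁻¹ * (σ ⟨(u : E).1.1, u.2⟩)⁻¹ * ((u : E).1.2 * (v : E).1.2)
            = ((σ ⟨(v : E).1.1, v.2⟩)⁻¹ * ((σ ⟨(u : E).1.1, u.2⟩)⁻¹ * (u : E).1.2)) * (v : E).1.2 := by
              group
          _ = _ := by rw [this]; group }
  have hfin : Finite E := inferInstance
  have hUfi : U.FiniteIndex := inferInstance
  let V : E →* A := MonoidHom.transfer ψ
  -- elements `(1, a)`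
  have hZE : ∀ a : A, ((1 : G), (a : B ⧸ S)) ∈ E := by
    rintro ⟨_, q, ⟨k, hk, rfl⟩, rfl⟩
    refine ⟨k, rfl, ?_⟩
    have : k ∈ K.subgroupOf (P : Subgroup G) := hk
    rw [mem_subgroupOf] at this
    simpa using this
  have hVZ : ∀ a : A, V ⟨(1, (a : B ⧸ S)), hZE a⟩ = a ^ U.index := by
    intro a
    have hcen : ∀ e : E, (⟨(1, (a : B ⧸ S)), hZE a⟩ : E) * e = e * ⟨(1, (a : B ⧸ S)), hZE a⟩ := by
      rintro ⟨⟨g, y⟩, he⟩
      ext
      · simp
      · exact ((mem_center_iff.1 (hAc a.2)) y).symm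
    have h1 := MonoidHom.transfer_eq_pow ψ (⟨(1, (a : B ⧸ S)), hZE a⟩ : E) (by
      intro k g₀ _
      have : Commute (⟨(1, (a : B ⧸ S)), hZE a⟩ : E) g₀ := hcen g₀
      rw [mul_assoc, (this.pow_left k).eq, inv_mul_cancel_left])
    change V _ = _ at h1
    rw [h1]
    have hmem : (⟨(1, (a : B ⧸ S)), hZE a⟩ : E) ∈ U := by
      change (1 : G) ∈ (P : Subgroup G)
      exact one_mem _
    have h2 : (⟨(⟨(1, (a : B ⧸ S)), hZE a⟩ : E) ^ U.index, MonoidHom.transfer_eq_pow_aux _ (by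
      intro k g₀ _
      have : Commute (⟨(1, (a : B ⧸ S)), hZE a⟩ : E) g₀ := hcen g₀
      rw [mul_assoc, (this.pow_left k).eq, inv_mul_cancel_left])⟩ : U) =
        (⟨⟨(1, (a : B ⧸ S)), hZE a⟩, hmem⟩ : U) ^ U.index := by
      ext <;> rfl
    rw [h2, map_pow]
    congr 1
    ext
    change (σ ⟨1, _⟩)⁻¹ * (a : B ⧸ S) = a
    have : (⟨1, hmem⟩ : P) = 1 := rfl
    rw [this, map_one, inv_one, one_mul]
  have hAp : IsPGroup p A := (hB.to_quotient S).to_subgroup A
  have hcopA : (Nat.card A).Coprime U.index := by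
    obtain ⟨k, hk⟩ := IsPGroup.iff_card.1 hAp
    rw [hk]
    exact (hUi.pow_right k).symm
  -- `T` is everything
  have hT : (V.ker.map s) ⊔ frattini (B ⧸ S) = ⊤ := by
    rw [eq_top_iff]
    intro y _
    obtain ⟨x, rfl⟩ := hσs y
    have hxE : ((x : G), σ x) ∈ E := ⟨x, rfl, by simp⟩
    obtain ⟨b, hb⟩ := (powCoprime hcopA).surjective (V ⟨_, hxE⟩)
    simp only [powCoprime_apply] at hb
    have h1 : (⟨(1, (b : B ⧸ S)), hZE b⟩ : E)⁻¹ * ⟨_, hxE⟩ ∈ V.ker := by
      rw [MonoidHom.mem_ker, map_mul, map_inv, hVZ, ← hb, inv_mul_cancel]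
    have h2 : (b : B ⧸ S)⁻¹ * σ x ∈ V.ker.map s := ⟨_, h1, rfl⟩
    have e : σ x = ((b : B ⧸ S)⁻¹ * σ x) * (b : B ⧸ S) := by
      have := (mem_center_iff.1 (hAc b.2)) (σ x)
      rw [mul_assoc, this]; group
    rw [e]
    exact mul_mem_sup h2 (hAΦ b.2)
  have hT' : V.ker.map s = ⊤ := frattini_nongenerating hT
  -- `(k, 1)` is in the kernel
  have hKE : ∀ k : K, ((k : G), (1 : B ⧸ S)) ∈ E := by
    intro k
    exact ⟨1, by simp, by simp⟩
  let κ : K →* E :=
    { toFun := fun k => ⟨((k : G), 1), hKE k⟩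
      map_one' := rfl
      map_mul' := by intro a b; ext <;> simp }
  have hκ : ∀ k : K, V (κ k) = 1 := by
    intro k
    have := pResidual_le_ker (p := p) (V.comp κ) hAp
    rw [hK] at this
    exact this (mem_top k)
  have hAbot : A = ⊥ := by
    rw [eq_bot_iff]
    intro y hy
    have h1 : y ∈ V.ker.map s := by rw [hT']; trivial
    obtain ⟨⟨⟨g, y'⟩, hw⟩, hwV, rfl⟩ := h1
    change y' ∈ A at hy
    change y' ∈ (⊥ : Subgroup (B ⧸ S))
    obtain ⟨x, hx, hxK⟩ := hw
    simp only at hx hxK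
    -- `x ∈ Q`
    have hxQ : ρ x ∈ Q := by
      obtain ⟨q, hq, e⟩ := hy
      rw [hx, hσ] at e
      have h3 : q⁻¹ * ρ x ∈ S := by
        rw [hπ, QuotientGroup.mk'_apply, QuotientGroup.mk'_apply, QuotientGroup.eq] at e
        exact e
      have h4 : S ≤ Q := commutator_le_left _ _
      have := mul_mem hq (h4 h3)
      simpa using this
    have hgK : g ∈ K := by
      obtain ⟨k, hk, hkx⟩ := hxQ
      have hk' : (k : G) ∈ K := hk
      have h6 : ((x * k⁻¹ : P) : G) ∈ K := by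
        apply hker
        rw [map_mul, map_inv, hkx, mul_inv_cancel]
      have h5 : (x : G) ∈ K := by
        have h7 := mul_mem h6 hk'
        have h8 : ((x * k⁻¹ : P) : G) * (k : G) = x := by
          change (x : G) * (k : G)⁻¹ * k = x
          group
        rwa [h8] at h7
      have e : g = (x : G) * (g⁻¹ * x)⁻¹ := by group
      rw [e]
      exact mul_mem h5 (inv_mem hxK)
    have h6 : V ⟨(1, y'), hZE ⟨y', hy⟩⟩ = 1 := by
      have e : (⟨(1, y'), hZE ⟨y', hy⟩⟩ : E) = (κ ⟨g, hgK⟩)⁻¹ * ⟨(g, y'), ⟨x, hx, hxK⟩⟩ := by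
        ext <;> simp [κ]
      rw [e, map_mul, map_inv, hκ, inv_one, one_mul]
      exact hwV
    rw [hVZ ⟨y', hy⟩] at h6
    have h7 : (⟨y', hy⟩ : A) = 1 := by
      apply (powCoprime hcopA).injective
      simp only [powCoprime_apply, one_pow]
      exact h6
    exact congrArg Subtype.val h7
  -- conclusion
  have hQS : Q ≤ ⁅Q, (⊤ : Subgroup B)⁆ := by
    rw [hA, Subgroup.map_eq_bot_iff, hπ, QuotientGroup.ker_mk'] at hAbot
    exact hAbot
  have hPnil : Group.IsNilpotent B := hB.isNilpotent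
  exact eq_bot_of_le_commutator_of_isNilpotent (P := ⊤) inferInstance le_top hQS

/-- if all homomorphisms of `H` (of index prime to `p`) into groups of exponent `p` kill `H ∩ O^p(G)`
then `O^p(H) = H ∩ O^p(G)`. -/
theorem pResidualOf_eq_of_forall_hom [Fact p.Prime] [Finite G] (H : Subgroup G)
    (hHi : H.index.Coprime p)
    (h : ∀ x : H, (x : G) ∈ Cfsg.pResidual p G → ∀ M : Subgroup H, M.Normal → M.index = p → x ∈ M) :
    (Cfsg.pResidual p H).map H.subtype = Cfsg.pResidual p G ⊓ H := by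
  set K := Cfsg.pResidual p G with hK
  have hKn : K.Normal := by
    rw [hK]
    infer_instance
  have hKK : Cfsg.pResidual p K = ⊤ := by
    have h1 := pResidual_eq_top_of_map (p := p) (N := (⊤ : Subgroup G))
    have h2 : (Cfsg.pResidual p (⊤ : Subgroup G)).map (⊤ : Subgroup G).subtype = K := by
      have := pResidual_map_equiv (p := p) (Subgroup.topEquiv (G := G))
      exact this
    rw [h2] at h1
    exact h1
  set L := Cfsg.pResidual p H with hL
  have hLn : L.Normal := by rw [hL]; infer_instance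
  have hLK : ∀ x : H, x ∈ L → (x : G) ∈ K := by
    intro x hx
    exact pResidual_map_le p H.subtype ⟨x, hx, rfl⟩
  have hBp : IsPGroup p (H ⧸ L) := isPGroup_quotient_pResidual
  have key := tate_gen H hHi K hKK hBp (QuotientGroup.mk' L) (QuotientGroup.mk'_surjective L)
    (by
      intro x hx
      exact hLK x ((QuotientGroup.eq_one_iff x).mp hx))
    (by
      rw [frattini, Order.radical]
      refine le_iInf₂ fun M hM => ?_
      rintro _ ⟨x, hx, rfl⟩
      have hMn := (Cfsg.Agent.Solv.coatom_of_pGroup hBp M hM)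
      have h1 := h x hx (M.comap (QuotientGroup.mk' L)) (hMn.1.comap _) (by
        rw [Subgroup.index_comap_of_surjective _ (QuotientGroup.mk'_surjective L)]
        exact hMn.2)
      exact h1)
  apply le_antisymm
  · rintro _ ⟨x, hx, rfl⟩
    exact ⟨hLK x hx, x.2⟩
  · rintro x ⟨hxK, hxH⟩
    have h1 : QuotientGroup.mk' L ⟨x, hxH⟩ ∈ (K.subgroupOf H).map (QuotientGroup.mk' L) :=
      ⟨⟨x, hxH⟩, hxK, rfl⟩
    rw [key, Subgroup.mem_bot] at h1
    exact ⟨⟨x, hxH⟩, (QuotientGroup.eq_one_iff _).mp h1, rfl⟩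

end Cfsg.Agent.H70
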